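import Mathlib
import Cfsg.Prelude.Def_QuasithinSetup
import Cfsg.Agent.Lib.Components.CharP2
import Cfsg.Agent.Lib.Components.PerfectLocal
import Cfsg.Agent.Lib.Basic.PCore
import Cfsg.Agent.Lib.Transfer.Basic

set_option autoImplicit false
open Cfsg

/-!
# Faithful members of `ℒ(G, T)` in an even-characteristic group

Elementary tools for `ℒ_f(G, T)`: perfect subnormal subgroups are normalized by the 2-core,
`O_2` of an overgroup of a Sylow subgroup contains its own centralizer, and the "fixed point"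
argument moving the non-trivial action on `Ω₁(Z(O_2(L)))` to `Ω₁(Z(O_2(K)))`.
-/

namespace Cfsg.Agent.Lib.QTKE.Faithful

open Subgroup
open Cfsg.Agent.Lib.Components.LocalFStar Cfsg.Agent.Lib.Components.CharP

section basics

variable {X : Type*} [Group X] [Finite X]

/-- One direction of the normalizer condition suffices in a finite group. -/
theorem mem_normalizer_of_conj_mem {S : Subgroup X} {g : X} (h : ∀ x ∈ S, g * x * g⁻¹ ∈ S) :
    g ∈ normalizer (S : Set X) := by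
  have hle : S.map (MulAut.conj g).toMonoidHom ≤ S := by
    rintro _ ⟨x, hx, rfl⟩
    exact h x hx
  have hcard : Nat.card (S.map (MulAut.conj g).toMonoidHom) = Nat.card S :=
    Nat.card_congr (S.equivMapOfInjective _ (MulAut.conj g).injective).symm.toEquiv
  have heq := Subgroup.eq_of_le_of_card_ge hle hcard.ge
  rw [Subgroup.mem_normalizer_iff]
  intro x
  constructor
  · exact h x
  · intro hx
    rw [← heq] at hx
    obtain ⟨z, hz, hzx⟩ := hx
    have hz' : g * z * g⁻¹ = g * x * g⁻¹ := hzx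
    have : z = x := by simpa using hz'
    exact this ▸ hz

theorem mem_of_odd_of_mul {H K : Subgroup X} (hN : K ≤ normalizer (H : Set X)) {a h r : X}
    (hh : h ∈ H) (hrK : r ∈ K) (k : ℕ) (hr : r ^ 2 ^ k = 1) (ha : a = h * r)
    (hodd : (orderOf a).Coprime 2) : a ∈ H := by
  have key : ∀ m : ℕ, (h * r) ^ m * (r ^ m)⁻¹ ∈ H := by
    intro m
    induction m with
    | zero => simp [H.one_mem]
    | succ m ih =>
      have h1 : (h * r) ^ (m + 1) * (r ^ (m + 1))⁻¹ =
          ((h * r) ^ m * (r ^ m)⁻¹) * (r ^ m * h * (r ^ m)⁻¹) := by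
        rw [pow_succ, pow_succ]; group
      rw [h1]
      refine H.mul_mem ih ?_
      exact (mem_normalizer_iff.1 (hN (K.pow_mem hrK m)) h).1 hh
  have h2 := key (2 ^ k)
  rw [hr, inv_one, mul_one, ← ha] at h2
  obtain ⟨m, hm⟩ := exists_pow_eq_self_of_coprime
    (show (2 ^ k).Coprime (orderOf a) from (Nat.Coprime.pow_left k hodd.symm))
  rw [← hm]
  exact H.pow_mem h2 m

/-- A normal `2`-subgroup normalizes every perfect subnormal subgroup. -/
theorem le_normalizer_of_perfect_subnormal {L R : Subgroup X} (hperf : ⁅L, L⁆ = L)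
    (hsub : L.IsSubnormal) (hRn : R.Normal) (hR : IsPGroup 2 R) :
    R ≤ normalizer (L : Set X) := by
  have key : ∀ H : Subgroup X, H.IsSubnormal → L ≤ H → ∀ x ∈ R, ∀ y ∈ L, x * y * x⁻¹ ∈ H := by
    intro H hH
    induction hH with
    | top => intro _ _ _ _ _; exact Subgroup.mem_top _
    | step H K hle hK hN ih =>
      intro hLH x hx
      have hLK := hLH.trans hle
      have hk := ih hLK x hx
      have hperf' : ⁅L.map (MulAut.conj x).toMonoidHom, L.map (MulAut.conj x).toMonoidHom⁆ =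
          L.map (MulAut.conj x).toMonoidHom := by
        rw [← Subgroup.map_commutator, hperf]
      have hNK : K ≤ normalizer (H : Set X) :=
        (Subgroup.normal_subgroupOf_iff_le_normalizer hle).1 hN
      have hL'K : L.map (MulAut.conj x).toMonoidHom ≤ K := by
        rintro _ ⟨y, hy, rfl⟩
        exact hk y hy
      have h2 : L.map (MulAut.conj x).toMonoidHom ≤ H := by
        refine Cfsg.Agent.Lib.Components.PerfectLocal.le_of_perfect_of_coprime_mem 2 hperf'
          (hL'K.trans hNK) ?_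
        rintro _ ⟨y, hy, rfl⟩ hc
        have hyK := hLK hy
        have hrR : y⁻¹ * (x * y * x⁻¹) ∈ R := by
          have h3 : y⁻¹ * (x * y * x⁻¹) = (y⁻¹ * x * y) * x⁻¹ := by group
          rw [h3]
          refine R.mul_mem ?_ (R.inv_mem hx)
          have := hRn.conj_mem x hx y⁻¹
          simpa using this
        have hrK : y⁻¹ * (x * y * x⁻¹) ∈ K := K.mul_mem (K.inv_mem hyK) (hk y hy)
        obtain ⟨n, hn⟩ := hR ⟨_, hrR⟩
        have hn' : (y⁻¹ * (x * y * x⁻¹)) ^ 2 ^ n = 1 := by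
          simpa using congrArg Subtype.val hn
        refine mem_of_odd_of_mul hNK (hLH hy) hrK n hn' ?_ hc
        show x * y * x⁻¹ = y * (y⁻¹ * (x * y * x⁻¹))
        group
      intro y hy
      exact h2 ⟨y, hy, rfl⟩
  intro x hx
  refine mem_normalizer_of_conj_mem ?_
  exact key L hsub le_rfl x hx

end basics

section pCoreTwoOf

variable {G : Type*} [Group G] [Finite G]

theorem pCoreTwoOf_le (Y : Subgroup G) : pCoreTwoOf Y ≤ Y := by
  rintro _ ⟨u, -, rfl⟩
  exact u.2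

theorem isPGroup_pCoreTwoOf (Y : Subgroup G) : IsPGroup 2 (pCoreTwoOf Y) :=
  isPGroup_map_subtype (Cfsg.Agent.Lib.Basic.PCore.pCore_isPGroup 2)

theorem le_normalizer_pCoreTwoOf (Y : Subgroup G) : Y ≤ normalizer (pCoreTwoOf Y : Set G) := by
  intro y hy
  refine mem_normalizer_of_conj_mem ?_
  rintro _ ⟨u, hu, rfl⟩
  have hN : (pCore 2 ↥Y).Normal := Cfsg.Agent.Lib.Nilpotent.Fitting.pCore_normal 2
  exact ⟨_, hN.conj_mem u hu ⟨y, hy⟩, rfl⟩

theorem le_pCoreTwoOf {P Y : Subgroup G} (hP : IsPGroup 2 P) (hPY : P ≤ Y)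
    (hY : Y ≤ normalizer (P : Set G)) : P ≤ pCoreTwoOf Y := by
  have := le_map_pCore (p := 2) hP hY
  exact (le_inf le_rfl hPY).trans this

theorem inf_le_pCoreTwoOf {P Y : Subgroup G} (hP : IsPGroup 2 P)
    (hY : Y ≤ normalizer (P : Set G)) : P ⊓ Y ≤ pCoreTwoOf Y :=
  le_map_pCore (p := 2) hP hY

/-- `O_2(Y)` is normalized by the normalizer of `Y`. -/
theorem conj_mem_pCoreTwoOf {Y : Subgroup G} {g : G} (hg : g ∈ normalizer (Y : Set G)) :
    g ∈ normalizer (pCoreTwoOf Y : Set G) := by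
  refine mem_normalizer_of_conj_mem ?_
  have hP : IsPGroup 2 ((pCoreTwoOf Y).map (MulAut.conj g).toMonoidHom) :=
    (isPGroup_pCoreTwoOf Y).of_equiv
      ((pCoreTwoOf Y).equivMapOfInjective _ (MulAut.conj g).injective)
  have hY : Y ≤ normalizer (((pCoreTwoOf Y).map (MulAut.conj g).toMonoidHom : Subgroup G) : Set G) := by
    intro y hy
    refine mem_normalizer_of_conj_mem ?_
    rintro _ ⟨u, hu, rfl⟩
    have hy' : g⁻¹ * y * g ∈ Y := by
      have := (mem_normalizer_iff.1 (inv_mem hg) y).1 hy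
      simpa using this
    have hu' := (mem_normalizer_iff.1 (le_normalizer_pCoreTwoOf Y hy') u).1 hu
    refine ⟨_, hu', ?_⟩
    simp only [MulEquiv.coe_toMonoidHom, MulAut.conj_apply]
    group
  have hPY : (pCoreTwoOf Y).map (MulAut.conj g).toMonoidHom ≤ Y := by
    rintro _ ⟨u, hu, rfl⟩
    exact (mem_normalizer_iff.1 hg u).1 (pCoreTwoOf_le Y hu)
  have := le_pCoreTwoOf hP hPY hY
  intro x hx
  exact this ⟨x, hx, rfl⟩

/-- Elements of `Ω₁(Z(P))`. -/
theorem omega_facts {P : Subgroup G} {a : G}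
    (ha : a ∈ omegaOne 2 (P ⊓ centralizer (P : Set G))) :
    a ∈ P ∧ a ∈ centralizer (P : Set G) ∧ a ^ 2 = 1 := by
  have h := mem_omegaOne_of_commute (p := 2) (H := P ⊓ centralizer (P : Set G))
    (by
      rintro x ⟨hx1, hx2⟩ y ⟨hy1, hy2⟩
      exact (Subgroup.mem_centralizer_iff.1 hx2 y hy1).symm) ha
  exact ⟨h.1.1, h.1.2, h.2⟩

theorem mem_omega_of {P : Subgroup G} {a : G} (h1 : a ∈ P) (h2 : a ∈ centralizer (P : Set G))
    (h3 : a ^ 2 = 1) : a ∈ omegaOne 2 (P ⊓ centralizer (P : Set G)) :=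
  Subgroup.subset_closure ⟨⟨h1, h2⟩, h3⟩

theorem conj_mem_omega {P : Subgroup G} {g a : G} (hg : g ∈ normalizer (P : Set G))
    (ha : a ∈ omegaOne 2 (P ⊓ centralizer (P : Set G))) :
    g * a * g⁻¹ ∈ omegaOne 2 (P ⊓ centralizer (P : Set G)) := by
  obtain ⟨h1, h2, h3⟩ := omega_facts ha
  refine mem_omega_of ((mem_normalizer_iff.1 hg a).1 h1) ?_ ?_
  · rw [Subgroup.mem_centralizer_iff]
    intro h hh
    have hh' : g⁻¹ * h * g ∈ P := by
      have := (mem_normalizer_iff.1 (inv_mem hg) h).1 hh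
      simpa using this
    have := Subgroup.mem_centralizer_iff.1 h2 _ hh'
    have h4 : h * (g * a * g⁻¹) = g * ((g⁻¹ * h * g) * a) * g⁻¹ := by group
    have h5 : g * a * g⁻¹ * h = g * (a * (g⁻¹ * h * g)) * g⁻¹ := by group
    rw [h4, h5, this]
  · have : (g * a * g⁻¹) ^ 2 = g * a ^ 2 * g⁻¹ := by
      rw [conj_pow]
    rw [this, h3]
    group

/-- If `y` of odd order sends `c` to `c * d` with `d` an involution (or trivial) fixed by `y`,
then `d = 1`. -/
theorem eq_one_of_conj_eq_mul {y c d : G} (hodd : Odd (orderOf y)) (h : y * c * y⁻¹ = c * d)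
    (hd : y * d = d * y) (hd2 : d ^ 2 = 1) : d = 1 := by
  have key : ∀ m : ℕ, y ^ m * c * (y ^ m)⁻¹ = c * d ^ m := by
    intro m
    induction m with
    | zero => simp
    | succ m ih =>
      have h1 : y ^ (m + 1) * c * (y ^ (m + 1))⁻¹ = y ^ m * (y * c * y⁻¹) * (y ^ m)⁻¹ := by
        rw [pow_succ]; group
      rw [h1, h]
      have hcomm : Commute (y ^ m) d := (show Commute y d from hd).pow_left m
      have h2 : y ^ m * (c * d) * (y ^ m)⁻¹ = (y ^ m * c * (y ^ m)⁻¹) * (y ^ m * d * (y ^ m)⁻¹) := by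
        group
      rw [h2, ih, hcomm.eq, pow_succ]
      simp [mul_assoc]
  have h1 := key (orderOf y)
  rw [pow_orderOf_eq_one, one_mul, inv_one, mul_one] at h1
  have h2 : d ^ orderOf y = 1 := by
    have := h1
    exact (mul_eq_left.mp this.symm)
  obtain ⟨k, hk⟩ := hodd
  rw [hk, pow_succ, pow_mul, hd2, one_pow, one_mul] at h2
  exact h2

/-- The fixed-point lemma: if an odd-order `y` acts on the elementary abelian group `A`, commuting
with the action of the `2`-group `Q`, and centralizes `C_A(Q)`, then `y` centralizes `A`. -/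
theorem commute_of_commute_fixed {A Q : Subgroup G} {y : G} (h2 : ∀ a ∈ A, a ^ 2 = 1)
    (hyA : ∀ a ∈ A, y * a * y⁻¹ ∈ A) (hodd : Odd (orderOf y)) (hQ : IsPGroup 2 Q)
    (hQA : Q ≤ normalizer (A : Set G))
    (hxy : ∀ x ∈ Q, ∀ a ∈ A, x * (y * a * y⁻¹) * x⁻¹ = y * (x * a * x⁻¹) * y⁻¹)
    (hfix : ∀ c ∈ A, (∀ x ∈ Q, x * c = c * x) → y * c = c * y) :
    ∀ a ∈ A, y * a = a * y := by
  have hAp : IsPGroup 2 A := by
    rintro ⟨a, ha⟩
    refine ⟨1, Subtype.ext ?_⟩
    simpa using h2 a ha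
  have hT : IsPGroup 2 ↥(Q ⊔ A) := IsPGroup.to_sup_of_normal_right' hQ hAp hQA
  have hnil := hT.isNilpotent
  obtain ⟨n, hn⟩ := hnil.nilpotent'
  have key : ∀ i : ℕ, ∀ a ∈ A, ∀ h : a ∈ Q ⊔ A,
      (⟨a, h⟩ : ↥(Q ⊔ A)) ∈ Subgroup.upperCentralSeries ↥(Q ⊔ A) i → y * a = a * y := by
    intro i
    induction i with
    | zero =>
      intro a _ _ h0
      rw [Subgroup.upperCentralSeries_zero, Subgroup.mem_bot] at h0
      have : a = 1 := congrArg Subtype.val h0
      simp [this]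
    | succ i ih =>
      intro a ha haT hs
      have hd : a⁻¹ * (y * a * y⁻¹) ∈ A := A.mul_mem (A.inv_mem ha) (hyA a ha)
      have hfixd : ∀ x ∈ Q, x * (a⁻¹ * (y * a * y⁻¹)) = (a⁻¹ * (y * a * y⁻¹)) * x := by
        intro x hx
        have hxT : x ∈ Q ⊔ A := (le_sup_left : Q ≤ Q ⊔ A) hx
        have hs' := Subgroup.mem_upperCentralSeries_succ_iff.1 hs ⟨x, hxT⟩
        have hxa : x * a⁻¹ * x⁻¹ ∈ A := (mem_normalizer_iff.1 (hQA hx) _).1 (A.inv_mem ha)
        have hemem : a * (x * a⁻¹ * x⁻¹) ∈ A := A.mul_mem ha hxa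
        have hemT : a * (x * a⁻¹ * x⁻¹) ∈ Q ⊔ A := (le_sup_right : A ≤ Q ⊔ A) hemem
        have hes : (⟨a * (x * a⁻¹ * x⁻¹), hemT⟩ : ↥(Q ⊔ A)) ∈ Subgroup.upperCentralSeries ↥(Q ⊔ A) i := by
          convert hs' using 1
          apply Subtype.ext
          simp [commutatorElement_def, mul_assoc]
        have hye := ih _ hemem hemT hes
        set e := a * (x * a⁻¹ * x⁻¹) with he
        have hxa' : x * a * x⁻¹ = e⁻¹ * a := by
          rw [he]; group
        have h4 := hxy x hx a ha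
        rw [hxa'] at h4
        have h5 : y * (e⁻¹ * a) * y⁻¹ = e⁻¹ * (y * a * y⁻¹) := by
          have : y * e⁻¹ = e⁻¹ * y := ((show Commute y e from hye).inv_right).eq
          calc y * (e⁻¹ * a) * y⁻¹ = (y * e⁻¹) * a * y⁻¹ := by group
            _ = (e⁻¹ * y) * a * y⁻¹ := by rw [this]
            _ = e⁻¹ * (y * a * y⁻¹) := by group
        rw [h5] at h4
        have h6 : x * a⁻¹ * x⁻¹ = a⁻¹ * e := by rw [he]; group
        have h7 : x * (a⁻¹ * (y * a * y⁻¹)) * x⁻¹ = (x * a⁻¹ * x⁻¹) * (x * (y * a * y⁻¹) * x⁻¹) := by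
          group
        have h8 : x * (a⁻¹ * (y * a * y⁻¹)) * x⁻¹ = a⁻¹ * (y * a * y⁻¹) := by
          rw [h7, h6, h4]; group
        calc x * (a⁻¹ * (y * a * y⁻¹)) = (x * (a⁻¹ * (y * a * y⁻¹)) * x⁻¹) * x := by group
          _ = _ := by rw [h8]
      have hyd := hfix _ hd hfixd
      have h1 := eq_one_of_conj_eq_mul hodd (c := a) (d := a⁻¹ * (y * a * y⁻¹))
        (by group) hyd (h2 _ hd)
      have h2 : y * a * y⁻¹ = a := by
        have := congrArg (fun z => a * z) h1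
        simpa [mul_assoc] using this
      calc y * a = (y * a * y⁻¹) * y := by group
        _ = a * y := by rw [h2]
  intro a ha
  have haT : a ∈ Q ⊔ A := (le_sup_right : A ≤ Q ⊔ A) ha
  refine key n a ha haT ?_
  rw [hn]
  exact Subgroup.mem_top _

/-- In an even characteristic group, an overgroup `M` of a Sylow 2-subgroup with `O_2(M) ≠ 1`
has `C_M(O_2(M)) ≤ O_2(M)`. -/
theorem mem_pCoreTwoOf_of_centralizes (hE : IsOfEvenCharacteristic G) (T : Sylow 2 G) {M : Subgroup G}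
    (hTM : (T : Subgroup G) ≤ M) (hM : pCore 2 ↥M ≠ ⊥) {c : G} (hcM : c ∈ M)
    (hc : c ∈ centralizer (pCoreTwoOf M : Set G)) : c ∈ pCoreTwoOf M := by
  have hRp := isPGroup_pCoreTwoOf M
  have hR1 : pCoreTwoOf M ≠ ⊥ := by
    intro h
    apply hM
    have := (Subgroup.map_eq_bot_iff_of_injective _ M.subtype_injective).1 h
    exact this
  have hMN : M ≤ normalizer (pCoreTwoOf M : Set G) := le_normalizer_pCoreTwoOf M
  have h1 := hE (normalizer (pCoreTwoOf M : Set G)) ⟨_, hRp, hR1, rfl⟩ ⟨T, hTM.trans hMN⟩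
  set N := normalizer (pCoreTwoOf M : Set G) with hN
  have hQT : pCoreTwoOf N ≤ T :=
    le_sylow_of_le_normalizer T (isPGroup_pCoreTwoOf N)
      ((hTM.trans hMN).trans (le_normalizer_pCoreTwoOf N))
  have hQR : pCoreTwoOf N ≤ pCoreTwoOf M :=
    le_pCoreTwoOf (isPGroup_pCoreTwoOf N) (hQT.trans hTM) (hMN.trans (le_normalizer_pCoreTwoOf N))
  have hmem : (⟨c, hMN hcM⟩ : ↥N) ∈ centralizer (pCore 2 ↥N : Set ↥N) := by
    rw [Subgroup.mem_centralizer_iff]
    intro u hu
    apply Subtype.ext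
    have hu' : (u : G) ∈ pCoreTwoOf M := hQR ⟨u, hu, rfl⟩
    exact Subgroup.mem_centralizer_iff.1 hc _ hu'
  obtain hmem' := h1 hmem
  exact hQR ⟨_, hmem', rfl⟩

/-- A perfect subgroup is generated by its elements of odd order. -/
theorem oddGenerated_eq_of_perfect {K : Subgroup G} (hperf : ⁅K, K⁆ = K) : oddGenerated K = K := by
  apply le_antisymm
  · refine (Subgroup.closure_le _).2 ?_
    rintro x ⟨hx, -⟩
    exact hx
  · refine Cfsg.Agent.Lib.Components.PerfectLocal.le_of_perfect_of_coprime_mem 2 hperf ?_ ?_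
    · intro g hg
      refine mem_normalizer_of_conj_mem ?_
      intro x hx
      unfold oddGenerated at hx ⊢
      induction hx using Subgroup.closure_induction with
      | mem x hx =>
        refine Subgroup.subset_closure ⟨K.mul_mem (K.mul_mem hg hx.1) (K.inv_mem hg), ?_⟩
        rw [Cfsg.Agent.Lib.Transfer.Basic.orderOf_conj_eq]
        exact hx.2
      | one => simp
      | mul x y _ _ hx hy =>
        have : g * (x * y) * g⁻¹ = (g * x * g⁻¹) * (g * y * g⁻¹) := by group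
        rw [this]
        exact Subgroup.mul_mem _ hx hy
      | inv x _ hx =>
        have : g * x⁻¹ * g⁻¹ = (g * x * g⁻¹)⁻¹ := by group
        rw [this]
        exact Subgroup.inv_mem _ hx
    · intro a ha hc
      exact Subgroup.subset_closure ⟨ha, Nat.odd_iff.2 (Nat.Coprime.odd_of_right hc |> Nat.odd_iff.1)⟩

/-- `F*(K) = O_2(K)` for a subnormal subgroup of an overgroup of a Sylow 2-subgroup. -/
theorem mem_calHe_of_subnormal (hE : IsOfEvenCharacteristic G) (T : Sylow 2 G) {M K : Subgroup G}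
    (hTM : (T : Subgroup G) ≤ M) (hM : pCore 2 ↥M ≠ ⊥) (hKM : K ≤ M)
    (hsub : (K.subgroupOf M).IsSubnormal) : K ∈ calHe G := by
  have hchar : centralizer (pCore 2 ↥M : Set ↥M) ≤ pCore 2 ↥M := by
    intro c hc
    have hc' : (c : G) ∈ centralizer (pCoreTwoOf M : Set G) := by
      rw [Subgroup.mem_centralizer_iff]
      rintro _ ⟨u, hu, rfl⟩
      have := Subgroup.mem_centralizer_iff.1 hc u hu
      exact congrArg Subtype.val this
    obtain ⟨v, hv, hvc⟩ := mem_pCoreTwoOf_of_centralizes hE T hTM hM c.2 hc'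
    have : v = c := Subtype.ext hvc
    exact this ▸ hv
  have hF := (isPGroup_Fstar_iff_centralizer_le 2).2 hchar
  have hF2 := Cfsg.Agent.Lib.Components.CharP2.isPGroup_Fstar_of_isSubnormal hsub hF
  have hF3 := isPGroup_Fstar_of_equiv (subgroupOfEquivOfLe hKM) hF2
  exact generalizedFitting_eq_pCore_iff.2 hF3

/-- `O_2(K) ≤ O_2(M)` for `K` subnormal in `M`. -/
theorem pCoreTwoOf_le_of_subnormal {M K : Subgroup G} (hKM : K ≤ M)
    (hsub : (K.subgroupOf M).IsSubnormal) : pCoreTwoOf K ≤ pCoreTwoOf M := by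
  have hAle : (pCoreTwoOf K).subgroupOf M ≤ K.subgroupOf M := by
    intro x hx
    exact Subgroup.mem_subgroupOf.2 (pCoreTwoOf_le K (Subgroup.mem_subgroupOf.1 hx))
  have hNorm : K.subgroupOf M ≤ normalizer (((pCoreTwoOf K).subgroupOf M : Subgroup ↥M) : Set ↥M) := by
    intro m hm
    rw [Subgroup.mem_normalizer_iff]
    intro h
    have h1 := mem_normalizer_iff.1 (le_normalizer_pCoreTwoOf K (Subgroup.mem_subgroupOf.1 hm)) (h : G)
    simpa [Subgroup.mem_subgroupOf] using h1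
  have hAs : ((pCoreTwoOf K).subgroupOf M).IsSubnormal :=
    Subgroup.IsSubnormal.step _ _ hAle hsub
      ((Subgroup.normal_subgroupOf_iff_le_normalizer hAle).2 hNorm)
  have hAp : IsPGroup 2 ((pCoreTwoOf K).subgroupOf M) :=
    (isPGroup_pCoreTwoOf K).comap_of_injective M.subtype M.subtype_injective
  have hle := Cfsg.Agent.Lib.Basic.PCore.le_pCore_of_subnormal hAs hAp
  intro x hx
  exact ⟨⟨x, hKM (pCoreTwoOf_le K hx)⟩, hle (Subgroup.mem_subgroupOf.2 hx), rfl⟩

/-- The `2`-core of `M` normalizes a perfect subnormal subgroup of `M`. -/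
theorem pCoreTwoOf_le_normalizer {M K : Subgroup G} (hKM : K ≤ M)
    (hperf : ⁅K.subgroupOf M, K.subgroupOf M⁆ = K.subgroupOf M)
    (hsub : (K.subgroupOf M).IsSubnormal) : pCoreTwoOf M ≤ normalizer (K : Set G) := by
  have h := le_normalizer_of_perfect_subnormal hperf hsub
    (Cfsg.Agent.Lib.Nilpotent.Fitting.pCore_normal 2 : (pCore 2 ↥M).Normal)
    (Cfsg.Agent.Lib.Basic.PCore.pCore_isPGroup 2)
  rintro _ ⟨u, hu, rfl⟩
  refine mem_normalizer_of_conj_mem ?_
  intro y hy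
  have h1 := (mem_normalizer_iff.1 (h hu) ⟨y, hKM hy⟩).1 (Subgroup.mem_subgroupOf.2 hy)
  exact Subgroup.mem_subgroupOf.1 h1

theorem perfect_of_subgroupOf {M K : Subgroup G} (hKM : K ≤ M)
    (hperf : ⁅K.subgroupOf M, K.subgroupOf M⁆ = K.subgroupOf M) : ⁅K, K⁆ = K := by
  have h := congrArg (Subgroup.map M.subtype) hperf
  rwa [Subgroup.map_commutator, Subgroup.map_subgroupOf_eq_of_le hKM] at h

/-- **S1851 (1)**: a member of `ℒ(G, T)` above a member of `ℒ_f(G, T)` is in `ℒ_f(G, T)`. -/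
theorem calLf_of_le (hE : IsOfEvenCharacteristic G) (T : Sylow 2 G) {L K : Subgroup G}
    (hL : L ∈ calLf (T : Subgroup G)) (hK : K ∈ calL (T : Subgroup G)) (hLK : L ≤ K) :
    K ∈ calLf (T : Subgroup G) := by
  obtain ⟨⟨hLC, -, hLcore⟩, ⟨hL1, hLodd, hLe⟩, hLV⟩ := hL
  refine ⟨hK, ?_⟩
  obtain ⟨hKC, -, hKcore⟩ := hK
  obtain ⟨hLC1, hLperf, hLsub, -⟩ := hLC
  obtain ⟨hKC1, hKperf, hKsub, -⟩ := hKC
  have hLH : L ≤ L ⊔ (T : Subgroup G) := le_sup_left
  have hKM : K ≤ K ⊔ (T : Subgroup G) := le_sup_left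
  have hTH : (T : Subgroup G) ≤ L ⊔ (T : Subgroup G) := le_sup_right
  have hTM : (T : Subgroup G) ≤ K ⊔ (T : Subgroup G) := le_sup_right
  have hHM : L ⊔ (T : Subgroup G) ≤ K ⊔ (T : Subgroup G) := sup_le_sup_right hLK _
  have hKperf' := perfect_of_subgroupOf hKM hKperf
  have hK1 : K ≠ ⊥ := by
    rintro rfl
    exact hKC1 (Subgroup.bot_subgroupOf _)
  refine ⟨⟨hK1, oddGenerated_eq_of_perfect hKperf', mem_calHe_of_subnormal hE T hTM hKcore hKM hKsub⟩, ?_⟩
  set H := L ⊔ (T : Subgroup G) with hH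
  set M := K ⊔ (T : Subgroup G) with hM
  have hQN : pCoreTwoOf H ≤ normalizer (L : Set G) := pCoreTwoOf_le_normalizer hLH hLperf hLsub
  have hPK : pCoreTwoOf M ≤ normalizer (K : Set G) := pCoreTwoOf_le_normalizer hKM hKperf hKsub
  have hPp := isPGroup_pCoreTwoOf M
  have hMP := le_normalizer_pCoreTwoOf M
  -- an odd element acting non-trivially
  have hex : ∃ y ∈ L, Odd (orderOf y) ∧
      ∃ a ∈ omegaOne 2 (pCoreTwoOf L ⊓ centralizer (pCoreTwoOf L : Set G)), y * a ≠ a * y := by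
    by_contra hno
    push Not at hno
    apply hLV
    unfold moduleV
    rw [Subgroup.commutator_eq_bot_iff_le_centralizer, Subgroup.le_centralizer_iff]
    have hle : oddGenerated L ≤ centralizer
        ((omegaOne 2 (pCoreTwoOf L ⊓ centralizer (pCoreTwoOf L : Set G)) : Subgroup G) : Set G) := by
      refine (Subgroup.closure_le _).2 ?_
      rintro y ⟨hy, hyo⟩
      rw [SetLike.mem_coe, Subgroup.mem_centralizer_iff]
      intro a ha
      exact (hno y hy hyo a ha).symm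
    rwa [hLodd] at hle
  obtain ⟨y, hyL, hyo, a, ha, hya⟩ := hex
  -- a fixed point of `Q = O_2(LT)`
  have hfixed : ∃ c ∈ omegaOne 2 (pCoreTwoOf L ⊓ centralizer (pCoreTwoOf L : Set G)),
      (∀ x ∈ pCoreTwoOf H, x * c = c * x) ∧ y * c ≠ c * y := by
    by_contra hno
    push Not at hno
    apply hya
    refine commute_of_commute_fixed (Q := pCoreTwoOf H) (fun a ha => (omega_facts ha).2.2)
      (fun a ha => conj_mem_omega (le_normalizer_pCoreTwoOf L hyL) ha) hyo
      (isPGroup_pCoreTwoOf H) ?_ ?_ hno a ha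
    · intro x hx
      refine mem_normalizer_of_conj_mem ?_
      intro b hb
      exact conj_mem_omega (conj_mem_pCoreTwoOf (hQN hx)) hb
    · intro x hx b hb
      have hxn := conj_mem_pCoreTwoOf (hQN hx)
      have hw1 : x * y * x⁻¹ * y⁻¹ ∈ L :=
        L.mul_mem ((mem_normalizer_iff.1 (hQN hx) y).1 hyL) (L.inv_mem hyL)
      have hw2 : x * y * x⁻¹ * y⁻¹ ∈ pCoreTwoOf H := by
        have h1 : y * x⁻¹ * y⁻¹ ∈ pCoreTwoOf H :=
          (mem_normalizer_iff.1 (le_normalizer_pCoreTwoOf H (hLH hyL)) _).1 (inv_mem hx)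
        have h2 : x * y * x⁻¹ * y⁻¹ = x * (y * x⁻¹ * y⁻¹) := by group
        rw [h2]
        exact mul_mem hx h1
      have hw3 : x * y * x⁻¹ * y⁻¹ ∈ pCoreTwoOf L :=
        inf_le_pCoreTwoOf (isPGroup_pCoreTwoOf H) (hLH.trans (le_normalizer_pCoreTwoOf H)) ⟨hw2, hw1⟩
      have hb' : y * (x * b * x⁻¹) * y⁻¹ ∈ omegaOne 2 (pCoreTwoOf L ⊓ centralizer (pCoreTwoOf L : Set G)) :=
        conj_mem_omega (le_normalizer_pCoreTwoOf L hyL) (conj_mem_omega hxn hb)
      have hcm := Subgroup.mem_centralizer_iff.1 (omega_facts hb').2.1 _ hw3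
      have h3 : x * (y * b * y⁻¹) * x⁻¹ =
          (x * y * x⁻¹ * y⁻¹) * (y * (x * b * x⁻¹) * y⁻¹) * (x * y * x⁻¹ * y⁻¹)⁻¹ := by group
      rw [h3, hcm]
      group
  obtain ⟨c, hc, hcQ, hyc⟩ := hfixed
  obtain ⟨hcO, -, hc2⟩ := omega_facts hc
  have hcL : c ∈ L := pCoreTwoOf_le L hcO
  have hcM : c ∈ M := hLH.trans hHM hcL
  have hyM : y ∈ M := hLH.trans hHM hyL
  have hPT : pCoreTwoOf M ≤ T := le_sylow_of_le_normalizer T hPp (hTM.trans hMP)
  have hPQ : pCoreTwoOf M ≤ pCoreTwoOf H :=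
    le_pCoreTwoOf hPp (hPT.trans hTH) (hHM.trans hMP)
  have hcC : c ∈ centralizer (pCoreTwoOf M : Set G) := by
    rw [Subgroup.mem_centralizer_iff]
    intro x hx
    exact hcQ x (hPQ hx)
  have hcP : c ∈ pCoreTwoOf M := mem_pCoreTwoOf_of_centralizes hE T hTM hKcore hcM hcC
  have hcW := mem_omega_of hcP hcC hc2
  have hdW : c⁻¹ * (y * c * y⁻¹) ∈ omegaOne 2 (pCoreTwoOf M ⊓ centralizer (pCoreTwoOf M : Set G)) :=
    mul_mem (inv_mem hcW) (conj_mem_omega (hMP hyM) hcW)
  obtain ⟨hdP, hdC, hd2⟩ := omega_facts hdW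
  have hyK : y ∈ K := hLK hyL
  have hdK : c⁻¹ * (y * c * y⁻¹) ∈ K := by
    have h1 : c⁻¹ * (y * c * y⁻¹) = (c⁻¹ * y * c) * y⁻¹ := by group
    rw [h1]
    refine K.mul_mem ?_ (K.inv_mem hyK)
    have := (mem_normalizer_iff.1 (inv_mem (hPK hcP)) y).1 hyK
    simpa using this
  have hdO : c⁻¹ * (y * c * y⁻¹) ∈ pCoreTwoOf K :=
    inf_le_pCoreTwoOf hPp (hKM.trans hMP) ⟨hdP, hdK⟩
  have hOP := pCoreTwoOf_le_of_subnormal hKM hKsub
  have hdC' : c⁻¹ * (y * c * y⁻¹) ∈ centralizer (pCoreTwoOf K : Set G) :=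
    Subgroup.centralizer_le hOP hdC
  have hdΩ := mem_omega_of hdO hdC' hd2
  have hyd : y * (c⁻¹ * (y * c * y⁻¹)) ≠ (c⁻¹ * (y * c * y⁻¹)) * y := by
    intro h
    have h1 := eq_one_of_conj_eq_mul hyo (c := c) (d := c⁻¹ * (y * c * y⁻¹)) (by group) h hd2
    apply hyc
    have h2 : y * c * y⁻¹ = c := by
      have := congrArg (fun z => c * z) h1
      simpa [mul_assoc] using this
    calc y * c = (y * c * y⁻¹) * y := by group
      _ = c * y := by rw [h2]
  intro hV
  unfold moduleV at hV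
  have hmem := Subgroup.commutator_mem_commutator hdΩ hyK
  rw [hV, Subgroup.mem_bot, commutatorElement_eq_one_iff_mul_comm] at hmem
  exact hyd hmem.symm

/-- **S1851**. -/
theorem main (hE : IsOfEvenCharacteristic G) (T : Sylow 2 G) {L : Subgroup G}
    (hL : L ∈ calLf (T : Subgroup G)) :
    (∀ K ∈ calL (T : Subgroup G), L ≤ K → K ∈ calLf (T : Subgroup G)) ∧
    ((∀ K ∈ calLf (T : Subgroup G), L ≤ K → K = L) → L ∈ calLfMax (T : Subgroup G)) := by
  have h1 : ∀ K ∈ calL (T : Subgroup G), L ≤ K → K ∈ calLf (T : Subgroup G) :=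
    fun K hK hLK => calLf_of_le hE T hL hK hLK
  refine ⟨h1, fun hmax => ⟨⟨hL.1, fun K hK hLK => hmax K (h1 K hK hLK) hLK⟩, hL.2⟩⟩

end pCoreTwoOf

end Cfsg.Agent.Lib.QTKE.Faithful
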